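import Mathlib
import Cfsg.Agent.H24.SmallRank

/-!
# `p`-groups of odd order with point stabilisers of constant order on a vector space
-/

set_option autoImplicit false

namespace Cfsg.Agent.H48.HalfTransitive

universe u v

variable {P : Type u} {V : Type v} [Group P] [AddCommGroup V] [DistribMulAction P V]

/-- The sum over the powers of `w`. -/
def powSum (p : ℕ) (w : P) (e : V) : V := ∑ j ∈ Finset.range p, w ^ j • e

variable {p : ℕ} [hp : Fact p.Prime]

omit hp in
/-- `powSum` is fixed by `w`. -/
theorem smul_powSum {w : P} (hw : w ^ p = 1) (e : V) : w • powSum p w e = powSum p w e := by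
  rw [powSum, Finset.smul_sum]
  simp only [← mul_smul, ← pow_succ']
  have h1 := Finset.sum_range_succ' (fun j => w ^ j • e) p
  have h2 := Finset.sum_range_succ (fun j => w ^ j • e) p
  rw [h1, hw] at h2
  simpa using h2

omit hp in
/-- `powSum` commutes with elements commuting with `w`. -/
theorem powSum_smul {w g : P} (h : Commute g w) (e : V) :
    powSum p w (g • e) = g • powSum p w e := by
  simp only [powSum, Finset.smul_sum, ← mul_smul]
  exact Finset.sum_congr rfl fun j _ => by rw [(h.pow_right j).eq]

omit hp in
/-- `powSum` of a fixed vector. -/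
theorem powSum_of_fixed {w : P} {e : V} (h : w • e = e) : powSum p w e = p • e := by
  have : ∀ j : ℕ, w ^ j • e = e := by
    intro j
    induction j with
    | zero => simp
    | succ j ih => rw [pow_succ', mul_smul, ih, h]
  simp [powSum, this]

omit hp in
/-- `powSum` is additive. -/
theorem powSum_add (w : P) (e f : V) : powSum p w (e + f) = powSum p w e + powSum p w f := by
  simp [powSum, smul_add, Finset.sum_add_distrib]

omit hp in
/-- The averaging identity for two commuting elements. -/
theorem powSum_identity (hp0 : 0 < p) {x z : P} (hxz : Commute x z)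
    (hz : ∀ j, 0 < j → j < p → ∀ e : V, powSum p (z ^ j) e = 0) (e : V) :
    ∑ i ∈ Finset.range p, powSum p (x * z ^ i) e = p • e := by
  simp only [powSum]
  rw [Finset.sum_comm]
  rw [Finset.sum_eq_single_of_mem 0 (Finset.mem_range.2 hp0)]
  · simp
  · intro j hj hj0
    have h := hz j (Nat.pos_of_ne_zero hj0) (Finset.mem_range.1 hj) e
    calc ∑ i ∈ Finset.range p, (x * z ^ i) ^ j • e
        = x ^ j • powSum p (z ^ j) e := by
          rw [powSum, Finset.smul_sum]
          refine Finset.sum_congr rfl fun i _ => ?_
          rw [← mul_smul, (hxz.pow_right i).mul_pow, ← pow_mul, ← pow_mul, mul_comm i j]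
      _ = 0 := by rw [h, smul_zero]

variable [Finite P] {q : ℕ}

omit [Finite P] in
/-- An element of order `p` is a power of each of its nonidentity powers. -/
theorem mem_zpowers_of_pow_prime {z y : P} (hz : orderOf z = p) (hy : y ∈ Subgroup.zpowers z)
    (hy1 : y ≠ 1) : z ∈ Subgroup.zpowers y := by
  obtain ⟨k, rfl⟩ := hy
  have hk : ¬ (p : ℤ) ∣ k := fun h => hy1 (orderOf_dvd_iff_zpow_eq_one.1 (by rw [hz]; exact h))
  obtain ⟨a, b, hab⟩ := (Prime.coprime_iff_not_dvd (Nat.prime_iff_prime_int.1 hp.out)).2 hk
  refine ⟨b, ?_⟩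
  have h1 : z ^ (p : ℤ) = 1 := by rw [zpow_natCast, ← hz, pow_orderOf_eq_one]
  calc (z ^ k) ^ b = (z ^ (p : ℤ)) ^ a * (z ^ k) ^ b := by rw [h1, one_zpow, one_mul]
    _ = z ^ (a * p + b * k) := by
      rw [← zpow_mul, ← zpow_mul, ← zpow_add, mul_comm (p : ℤ) a, mul_comm k b]
    _ = z := by rw [hab, zpow_one]

/-- A `p`-element cannot act nontrivially on a group of order `p` by conjugation. -/
theorem commute_of_conj_mem {g w : P} (hP : IsPGroup p P) (hw : orderOf w = p)
    (h : g * w * g⁻¹ ∈ Subgroup.zpowers w) : Commute g w := by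
  obtain ⟨α, hα⟩ := h
  simp only at hα
  have hit : ∀ n : ℕ, g ^ n * w * (g ^ n)⁻¹ = w ^ (α ^ n) := by
    intro n
    induction n with
    | zero => simp
    | succ n ih =>
      calc g ^ (n + 1) * w * (g ^ (n + 1))⁻¹ = g * (g ^ n * w * (g ^ n)⁻¹) * g⁻¹ := by
            rw [pow_succ']; group
        _ = (g * w * g⁻¹) ^ (α ^ n) := by rw [ih, conj_zpow]
        _ = w ^ (α ^ (n + 1)) := by rw [← hα, ← zpow_mul, pow_succ']
  obtain ⟨k, hk⟩ := hP g
  have h1 := hit (p ^ k)
  rw [hk, one_mul, inv_one, mul_one] at h1
  nth_rw 1 [← zpow_one w] at h1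
  have h1' := zpow_eq_zpow_iff_modEq.1 h1
  rw [hw] at h1'
  have h2 : ((1 : ℤ) : ZMod p) = ((α ^ (p ^ k) : ℤ) : ZMod p) :=
    (ZMod.intCast_eq_intCast_iff _ _ _).2 h1'
  rw [Int.cast_pow, ZMod.pow_card_pow, ZMod.intCast_eq_intCast_iff, ← hw] at h2
  have h3 : w ^ α = w := by
    nth_rw 2 [← zpow_one w]
    exact zpow_eq_zpow_iff_modEq.2 h2.symm
  exact mul_inv_eq_iff_eq_mul.1 (hα.symm.trans h3)

variable [FaithfulSMul P V] [Finite V]

/-- The main statement. -/
theorem cyclic_and_fpf (hp2 : p ≠ 2) (hP : IsPGroup p P) (hq : q.Prime)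
    (hE : ∀ e : V, q • e = 0)
    (hconst : ∀ a b : V, a ≠ 0 → b ≠ 0 →
      Nat.card (MulAction.stabilizer P a) = Nat.card (MulAction.stabilizer P b)) :
    IsCyclic P ∧ ∀ g : P, g ≠ 1 → ∀ a : V, g • a = a → a = 0 := by
  classical
  -- if all stabilisers contain a common nonidentity element, contradiction
  have faith : ∀ g : P, (∀ e : V, g • e = e) → g = 1 := fun g h =>
    eq_of_smul_eq_smul fun e : V => by rw [h e, one_smul]
  rcases eq_or_ne q p with rfl | hqp
  · have htriv : ∀ g : P, g = 1 := by
      intro g
      apply faith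
      intro e
      by_contra he
      have hV : Nontrivial V := ⟨g • e, e, he⟩
      have hdvd : q ∣ Nat.card V := by
        obtain ⟨v, hv⟩ := exists_ne (0 : V)
        rw [← addOrderOf_eq_prime (hE v) hv]
        exact addOrderOf_dvd_natCard v
      obtain ⟨b, hb, hb0⟩ := hP.exists_fixed_point_of_prime_dvd_card_of_fixed_point V hdvd
        (a := 0) (fun h => smul_zero h)
      apply he
      rcases eq_or_ne e 0 with rfl | he0
      · exact smul_zero g
      have htop : MulAction.stabilizer P b = ⊤ := eq_top_iff.2 fun h _ => hb h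
      have : MulAction.stabilizer P e = ⊤ := by
        apply Subgroup.eq_top_of_card_eq
        rw [hconst e b he0 hb0.symm, htop, Subgroup.card_top]
      have := this.symm ▸ Subgroup.mem_top g
      exact this
    have : Subsingleton P := ⟨fun x y => (htriv x).trans (htriv y).symm⟩
    exact ⟨inferInstance, fun g hg => absurd (htriv g) hg⟩
  · have hpe : ∀ e : V, p • e = 0 → e = 0 := by
      intro e he
      have h1 := addOrderOf_dvd_of_nsmul_eq_zero he
      have h2 := addOrderOf_dvd_of_nsmul_eq_zero (hE e)
      have : addOrderOf e ∣ 1 := by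
        rw [← Nat.Coprime.gcd_eq_one ((Nat.coprime_primes hp.out hq).2 (Ne.symm hqp))]
        exact Nat.dvd_gcd h1 h2
      exact AddMonoid.addOrderOf_eq_one_iff.1 (Nat.dvd_one.1 this)
    by_cases hfpf : ∀ g : P, g ≠ 1 → ∀ a : V, g • a = a → a = 0
    · refine ⟨?_, hfpf⟩
      rcases subsingleton_or_nontrivial V with hV | hV
      · have : Subsingleton P := ⟨fun x y => eq_of_smul_eq_smul fun e : V => Subsingleton.elim _ _⟩
        infer_instance
      by_contra hnc
      obtain ⟨A, hAn, hAcomm, hAe, hAc⟩ := Cfsg.Agent.H24.exists_normal_elementary_two P p hp2 hP hnc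
      have hAbot : A ≠ ⊥ := by
        intro h
        rw [h, Subgroup.card_bot] at hAc
        have := hp.out.two_le
        nlinarith
      obtain ⟨⟨z, hzA⟩, hz1'⟩ := A.ne_bot_iff_exists_ne_one.1 hAbot
      have hz1 : z ≠ 1 := fun h => hz1' (Subtype.ext h)
      obtain ⟨x, hxA, hxz⟩ : ∃ x ∈ A, x ∉ Subgroup.zpowers z := by
        by_contra hcon
        push Not at hcon
        have h1 := Subgroup.card_le_of_le (show A ≤ Subgroup.zpowers z from hcon)
        rw [hAc, Nat.card_zpowers, orderOf_eq_prime (hAe z hzA) hz1] at h1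
        have := hp.out.two_le
        nlinarith
      obtain ⟨e, he⟩ := exists_ne (0 : V)
      apply he
      apply hpe
      have hc : Commute x z := congrArg Subtype.val
        (hAcomm.is_comm.comm (⟨x, hxA⟩ : A) ⟨z, hzA⟩)
      rw [← powSum_identity hp.out.pos hc ?_ e]
      · refine Finset.sum_eq_zero fun i _ => ?_
        refine hfpf _ ?_ _ (smul_powSum (hAe _ (mul_mem hxA (pow_mem hzA i))) e)
        intro h
        apply hxz
        rw [mul_eq_one_iff_eq_inv.1 h]
        exact inv_mem (pow_mem (Subgroup.mem_zpowers z) i)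
      · intro j hj0 hjp e
        refine hfpf _ ?_ _ (smul_powSum (hAe _ (pow_mem hzA j)) e)
        exact pow_ne_one_of_lt_orderOf hj0.ne' (by rw [orderOf_eq_prime (hAe z hzA) hz1]; exact hjp)
    exfalso
    push Not at hfpf
    obtain ⟨g₀, hg₀, a₀, hga, ha₀⟩ := hfpf
    have hbig : ∀ a : V, a ≠ 0 → MulAction.stabilizer P a ≠ ⊥ := by
      intro a ha h
      have h1 := hconst a a₀ ha ha₀
      rw [h, Subgroup.card_bot] at h1
      exact hg₀ (Subgroup.mem_bot.1 (Subgroup.eq_bot_of_card_eq _ h1.symm ▸ (show g₀ ∈ MulAction.stabilizer P a₀ from hga)))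
    -- the group is not cyclic
    have hnc : ¬ IsCyclic P := by
      intro hc
      have hnt : Nontrivial P := ⟨g₀, 1, hg₀⟩
      obtain ⟨n, hn⟩ := IsPGroup.iff_card.1 hP
      have hpd : p ∣ Nat.card P := by
        rcases Nat.eq_zero_or_pos n with rfl | hn0
        · rw [pow_zero] at hn
          exact absurd hn (Finite.one_lt_card (α := P)).ne'
        · rw [hn]; exact dvd_pow_self p hn0.ne'
      obtain ⟨z, hz⟩ := exists_prime_orderOf_dvd_card' p hpd
      have hz1 : z ≠ 1 := fun h => hp.out.ne_one (by rw [← hz, h, orderOf_one])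
      apply hz1
      apply faith
      intro e
      rcases eq_or_ne e 0 with rfl | he
      · exact smul_zero z
      obtain ⟨⟨y, hy⟩, hy1⟩ := Subgroup.ne_bot_iff_exists_ne_one.1 (hbig e he)
      have hdy : p ∣ orderOf y := by
        obtain ⟨k, hk⟩ := IsPGroup.iff_orderOf.1 hP y
        rcases Nat.eq_zero_or_pos k with rfl | hk0
        · exact absurd (orderOf_eq_one_iff.1 (by simpa using hk)) (fun h => hy1 (Subtype.ext h))
        · rw [hk]; exact dvd_pow_self p hk0.ne'
      set y' := y ^ (orderOf y / p) with hy'
      have hy'o : orderOf y' = p := orderOf_pow_orderOf_div (orderOf_pos y).ne' hdy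
      have hpz : z ^ p = 1 := by rw [← hz, pow_orderOf_eq_one]
      have hmem : y' ∈ Subgroup.zpowers z := by
        have := Fintype.ofFinite P
        have hsub : (Finset.range p).image (fun i => z ^ i) ⊆
            Finset.univ.filter (fun x : P => x ^ p = 1) := by
          intro x hx
          obtain ⟨i, -, rfl⟩ := Finset.mem_image.1 hx
          refine Finset.mem_filter.2 ⟨Finset.mem_univ _, ?_⟩
          rw [← pow_mul, mul_comm, pow_mul, hpz, one_pow]
        have hcard : ((Finset.range p).image (fun i => z ^ i)).card = p := by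
          rw [Finset.card_image_of_injOn, Finset.card_range]
          intro i hi j hj hij
          exact pow_injOn_Iio_orderOf (hz.symm ▸ Finset.mem_range.1 hi)
            (hz.symm ▸ Finset.mem_range.1 hj) hij
        have heq := Finset.eq_of_subset_of_card_le hsub
          (by rw [hcard]; exact IsCyclic.card_pow_eq_one_le hp.out.pos)
        have : y' ∈ (Finset.range p).image (fun i => z ^ i) := by
          rw [heq]
          refine Finset.mem_filter.2 ⟨Finset.mem_univ _, ?_⟩
          rw [← hy'o, pow_orderOf_eq_one]
        obtain ⟨i, -, hi⟩ := Finset.mem_image.1 this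
        exact hi ▸ pow_mem (Subgroup.mem_zpowers z) i
      have hy'1 : y' ≠ 1 := fun h => hp.out.ne_one (by rw [← hy'o, h, orderOf_one])
      exact Subgroup.zpowers_le.2 (pow_mem hy _) (mem_zpowers_of_pow_prime hz hmem hy'1)
    obtain ⟨A, hAn, hAcomm, hAe, hAc⟩ := Cfsg.Agent.H24.exists_normal_elementary_two P p hp2 hP hnc
    have hAbot : A ≠ ⊥ := by
      intro h
      rw [h, Subgroup.card_bot] at hAc
      have := hp.out.two_le
      nlinarith
    obtain ⟨z, hzA, hzc, hz⟩ := Cfsg.Agent.H24.exists_central_orderOf hP hAbot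
    have hz1 : z ≠ 1 := fun h => hp.out.ne_one (by rw [← hz, h, orderOf_one])
    have hzp : z ^ p = 1 := by rw [← hz, pow_orderOf_eq_one]
    have hzcom : ∀ g : P, Commute g z := fun g => (Subgroup.mem_center_iff.1 hzc g)
    -- `z` is fixed-point-free
    have zfpf : ∀ a : V, z • a = a → a = 0 := by
      intro c hc
      by_contra hc0
      apply hz1
      apply faith
      intro e
      set d := p • e - powSum p z e with hd
      have hNd : powSum p z d = 0 := by
        have h1 : powSum p z (p • e) = p • powSum p z e := by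
          simp only [powSum, Finset.smul_sum]
          exact Finset.sum_congr rfl fun j _ => by rw [smul_comm]
        have h2 := powSum_add (p := p) z d (powSum p z e)
        rw [hd, sub_add_cancel, h1, powSum_of_fixed (smul_powSum hzp e)] at h2
        simpa [hd] using h2.symm
      have hd0 : d = 0 := by
        by_contra hd0
        have hsum : c + d ≠ 0 := by
          intro h
          have h1 := congrArg (powSum p z) h
          rw [powSum_add, hNd, add_zero, powSum_of_fixed hc, powSum, ] at h1
          simp only [smul_zero, Finset.sum_const_zero] at h1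
          exact hc0 (hpe c h1)
        have hle : MulAction.stabilizer P (c + d) ≤
            MulAction.stabilizer P c ⊓ MulAction.stabilizer P d := by
          intro g hg
          have hg' : g • c + g • d = c + d := by rw [← smul_add]; exact hg
          have h1 := congrArg (powSum p z) hg'
          rw [powSum_add, powSum_add, powSum_smul (hzcom g), powSum_smul (hzcom g), hNd,
            smul_zero, powSum_of_fixed hc, add_zero, add_zero, smul_comm] at h1
          have h2 : g • c = c := by
            apply sub_eq_zero.1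
            apply hpe
            rw [nsmul_sub, h1, sub_self]
          exact ⟨h2, by rw [h2] at hg'; exact add_left_cancel hg'⟩
        have e1 : MulAction.stabilizer P (c + d) = MulAction.stabilizer P c :=
          Subgroup.eq_of_le_of_card_ge (hle.trans inf_le_left) (hconst _ _ hc0 hsum).le
        have hzd : z • d = d := (hle (e1.symm ▸ (show z ∈ MulAction.stabilizer P c from hc))).2
        apply hd0
        apply hpe
        rw [← powSum_of_fixed (p := p) hzd, hNd]
      have : p • (z • e - e) = 0 := by
        rw [hd, sub_eq_zero] at hd0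
        rw [nsmul_sub, ← smul_comm z, hd0, smul_powSum hzp, sub_self]
      exact sub_eq_zero.1 (hpe _ this)
    have hzj : ∀ j, 0 < j → j < p → ∀ e : V, powSum p (z ^ j) e = 0 := by
      intro j hj0 hjp e
      apply zfpf
      have hy : z ^ j ≠ 1 := pow_ne_one_of_lt_orderOf hj0.ne' (hz ▸ hjp)
      obtain ⟨k, hk⟩ := mem_zpowers_of_pow_prime hz (pow_mem (Subgroup.mem_zpowers z) j) hy
      have hfix : z ^ j ∈ MulAction.stabilizer P (powSum p (z ^ j) e) :=
        smul_powSum (hAe _ (pow_mem hzA j)) e
      have := zpow_mem hfix k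
      simp only at hk
      rw [hk] at this
      exact this
    obtain ⟨x, hxA, hxz⟩ : ∃ x ∈ A, x ∉ Subgroup.zpowers z := by
      by_contra hcon
      push Not at hcon
      have h1 := Subgroup.card_le_of_le (show A ≤ Subgroup.zpowers z from hcon)
      rw [hAc, Nat.card_zpowers, hz] at h1
      have := hp.out.two_le
      nlinarith
    set w : ℕ → P := fun i => x * z ^ i with hw
    have hwA : ∀ i, w i ∈ A := fun i => mul_mem hxA (pow_mem hzA i)
    have hw1 : ∀ i, w i ∉ Subgroup.zpowers z := by
      intro i h
      apply hxz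
      have := mul_mem h (inv_mem (pow_mem (Subgroup.mem_zpowers z) i))
      simpa [hw] using this
    have hwo : ∀ i, orderOf (w i) = p := fun i =>
      orderOf_eq_prime (hAe _ (hwA i)) fun h => hw1 i (h ▸ one_mem _)
    have hAcom : ∀ {u v : P}, u ∈ A → v ∈ A → Commute u v := fun hu hv =>
      congrArg Subtype.val (hAcomm.is_comm.comm (⟨_, hu⟩ : A) ⟨_, hv⟩)
    -- every nonzero vector is fixed by at most one line
    have line : ∀ {i : ℕ} {a : V} {y : P}, a ≠ 0 → w i • a = a → y ∈ A → y • a = a →
        y ∈ Subgroup.zpowers (w i) := by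
      intro i a y ha hwa hyA hya
      by_contra hy
      apply ha
      apply zfpf
      set S := MulAction.stabilizer P a ⊓ A
      have hgt : p < Nat.card S := by
        have hle : Subgroup.zpowers (w i) ≤ S := Subgroup.zpowers_le.2 ⟨hwa, hwA i⟩
        have hne : Subgroup.zpowers (w i) ≠ S := fun h => hy (h ▸ (⟨hya, hyA⟩ : y ∈ S))
        have h1 := Subgroup.card_le_of_le hle
        rw [Nat.card_zpowers, hwo] at h1
        refine lt_of_le_of_ne h1 fun h => hne (Subgroup.eq_of_le_of_card_ge hle ?_)
        rw [Nat.card_zpowers, hwo, ← h]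
      have hdvd : Nat.card S ∣ p ^ 2 := hAc ▸ Subgroup.card_dvd_of_le inf_le_right
      obtain ⟨k, hk, hk'⟩ := (Nat.dvd_prime_pow hp.out).1 hdvd
      have hk2 : k = 2 := by
        rcases k with _ | _ | k
        · have := hp.out.two_le; rw [pow_zero] at hk'; omega
        · rw [zero_add, pow_one] at hk'; omega
        · omega
      have hSA : S = A := Subgroup.eq_of_le_of_card_ge inf_le_right (by rw [hk', hk2, hAc])
      exact (hSA.symm ▸ hzA : z ∈ S).1
    have hwne : ∀ {i j : ℕ}, i < p → j < p → i ≠ j → w i ∉ Subgroup.zpowers (w j) := by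
      intro i j hi hj hij h
      obtain ⟨k, hk⟩ := h
      -- compare modulo `⟨z⟩`
      have hk1 : (p : ℤ) ∣ k - 1 := by
        by_contra hnd
        apply hxz
        have h2 : x ^ (k - 1) ∈ Subgroup.zpowers z := by
          have hc : Commute x (z ^ j) := (hzcom x).pow_right j
          have : x ^ (k - 1) = z ^ i * ((z ^ j) ^ k)⁻¹ := by
            have hk' : x ^ k * (z ^ j) ^ k = x * z ^ i := by rw [← hc.mul_zpow]; exact hk
            have h5 : x ^ k = x * z ^ i * ((z ^ j) ^ k)⁻¹ := by rw [← hk']; group
            have h6 : Commute x⁻¹ x := (Commute.refl x).inv_left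
            calc x ^ (k - 1) = x⁻¹ * x ^ k := by
                  rw [sub_eq_add_neg, add_comm, zpow_add, zpow_neg, zpow_one]
              _ = z ^ i * ((z ^ j) ^ k)⁻¹ := by rw [h5]; group
          rw [this]
          exact mul_mem (pow_mem (Subgroup.mem_zpowers z) i)
            (inv_mem (zpow_mem (pow_mem (Subgroup.mem_zpowers z) j) k))
        have hxo : orderOf x = p := orderOf_eq_prime (hAe x hxA) fun h => hxz (h ▸ one_mem _)
        have h3 : x ^ (k - 1) ≠ 1 := fun h => hnd (hxo ▸ orderOf_dvd_iff_zpow_eq_one.2 h)
        exact Subgroup.zpowers_le.2 h2 (mem_zpowers_of_pow_prime hxo (zpow_mem (Subgroup.mem_zpowers x) _) h3)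
      have h4 : w j ^ k = w j := by
        obtain ⟨c, hc⟩ := hk1
        rw [show k = (p : ℤ) * c + 1 by omega, zpow_add, zpow_mul, zpow_natCast, hAe _ (hwA j),
          one_zpow, one_mul, zpow_one]
      have h5 : z ^ j = z ^ i := mul_left_cancel (h4.symm.trans hk)
      exact hij (pow_injOn_Iio_orderOf (hz.symm ▸ hi) (hz.symm ▸ hj) h5.symm)
    -- components
    have kill : ∀ {i : ℕ} {y : P} {b : V}, y ∈ A → y • b = b → y ∉ Subgroup.zpowers (w i) →
        powSum p (w i) b = 0 := by
      intro i y b hyA hyb hy
      by_contra h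
      refine hy (line h (smul_powSum (hAe _ (hwA i)) b) hyA ?_)
      rw [← powSum_smul (hAcom hyA (hwA i)), hyb]
    have comp : ∀ {b : V}, b ≠ 0 → ∃ k < p, powSum p (w k) b ≠ 0 := by
      intro b hb
      by_contra h
      push Not at h
      apply hb
      apply hpe
      rw [← powSum_identity hp.out.pos (hzcom x) hzj b]
      exact Finset.sum_eq_zero fun i hi => h i (Finset.mem_range.1 hi)
    -- the key step
    have key : ∀ {i j : ℕ} {a b : V}, i < p → j < p → i ≠ j → a ≠ 0 → b ≠ 0 → w i • a = a →
        w j • b = b → MulAction.stabilizer P a ≤ MulAction.stabilizer P b := by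
      intro i j a b hi hj hij ha hb hwa hwb
      have hNib : powSum p (w i) b = 0 := kill (hwA j) hwb (hwne hj hi hij.symm)
      have hab : a + b ≠ 0 := by
        intro h
        have := congrArg (powSum p (w i)) h
        rw [powSum_add, hNib, powSum_of_fixed hwa, add_zero] at this
        simp only [powSum, smul_zero, Finset.sum_const_zero] at this
        exact ha (hpe a this)
      have hle : MulAction.stabilizer P (a + b) ≤
          MulAction.stabilizer P a ⊓ MulAction.stabilizer P b := by
        intro g hg
        have hg' : g • a + g • b = a + b := by rw [← smul_add]; exact hg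
        have dest : ∀ {i j : ℕ} {a b : V}, i < p → j < p → i ≠ j → a ≠ 0 → w i • a = a →
            w j • b = b → g • a + g • b = a + b →
            g * w i * g⁻¹ ∈ Subgroup.zpowers (w i) ∨ g * w i * g⁻¹ ∈ Subgroup.zpowers (w j) := by
          intro i j a b hi hj hij ha hwa hwb hg'
          set y := g * w i * g⁻¹ with hy
          have hyA : y ∈ A := hAn.conj_mem _ (hwA i) g
          have hya : y • (g • a) = g • a := by rw [hy, mul_smul, mul_smul, inv_smul_smul, hwa]
          have hga0 : g • a ≠ 0 := by rwa [ne_eq, smul_eq_zero_iff_eq]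
          obtain ⟨k, hk, hk0⟩ := comp hga0
          have hyk : y ∈ Subgroup.zpowers (w k) := by
            by_contra h; exact hk0 (kill hyA hya h)
          by_cases hki : k = i
          · exact Or.inl (hki ▸ hyk)
          by_cases hkj : k = j
          · exact Or.inr (hkj ▸ hyk)
          exfalso
          apply hk0
          have h1 := congrArg (powSum p (w k)) hg'
          rw [powSum_add, powSum_add, kill (hwA i) hwa (hwne hi hk (Ne.symm hki)),
            kill (hwA j) hwb (hwne hj hk (Ne.symm hkj)), add_zero] at h1
          have hgb : powSum p (w k) (g • b) = 0 := by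
            refine kill (y := g * w j * g⁻¹) (hAn.conj_mem _ (hwA j) g)
              (by rw [mul_smul, mul_smul, inv_smul_smul, hwb]) fun h => hwne hj hi (Ne.symm hij) ?_
            -- `g (w j) g⁻¹` and `g (w i) g⁻¹` generate the same line
            have h2 : w k ∈ Subgroup.zpowers y :=
              mem_zpowers_of_pow_prime (hwo k) hyk (fun h0 => hw1 i (by
                rw [conj_eq_one_iff.1 h0]; exact one_mem _))
            obtain ⟨n, hn⟩ := Subgroup.zpowers_le.2 h2 h
            simp only [hy, conj_zpow] at hn
            exact ⟨n, mul_left_cancel (mul_right_cancel hn)⟩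
          rwa [hgb, add_zero] at h1
        have hgi : Commute g (w i) := by
          rcases dest hi hj hij ha hwa hwb hg' with h | h
          · exact commute_of_conj_mem hP (hwo i) h
          rcases dest hj hi hij.symm hb hwb hwa (by rw [add_comm, hg', add_comm]) with h' | h'
          · exfalso
            have := commute_of_conj_mem hP (hwo j) h'
            obtain ⟨n, hn⟩ := h
            apply hwne hi hj hij
            refine ⟨n, ?_⟩
            calc w j ^ n = g⁻¹ * (g * w j ^ n) := by group
              _ = g⁻¹ * (w j ^ n * g) := by rw [(this.zpow_right n).eq]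
              _ = g⁻¹ * (g * w i * g⁻¹ * g) := by rw [show w j ^ n = g * w i * g⁻¹ from hn]
              _ = w i := by group
          · have h2 : (g * g) * w i * (g * g)⁻¹ ∈ Subgroup.zpowers (w i) := by
              obtain ⟨n, hn⟩ := h
              have : (g * g) * w i * (g * g)⁻¹ = (g * w j * g⁻¹) ^ n := by
                rw [conj_zpow, show w j ^ n = g * w i * g⁻¹ from hn]; group
              rw [this]
              exact zpow_mem h' n
            have h3 := commute_of_conj_mem hP (hwo i) h2
            obtain ⟨n, hn⟩ := IsPGroup.iff_orderOf.1 hP g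
            have hodd : Odd (orderOf g) := hn ▸ (hp.out.odd_of_ne_two hp2).pow
            obtain ⟨m, hm⟩ := hodd
            have hgg : g = (g * g) ^ (m + 1) := by
              rw [← sq, ← pow_mul, show 2 * (m + 1) = orderOf g + 1 by omega, pow_succ,
                pow_orderOf_eq_one, one_mul]
            exact hgg ▸ h3.pow_left (m + 1)
        have hga : g • a = a := by
          have h1 := congrArg (powSum p (w i)) hg'
          rw [powSum_add, powSum_add, powSum_smul hgi, powSum_smul hgi, hNib, smul_zero,
            powSum_of_fixed hwa, add_zero, add_zero, smul_comm] at h1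
          apply sub_eq_zero.1
          apply hpe
          rw [nsmul_sub, h1, sub_self]
        exact ⟨hga, by rw [hga] at hg'; exact add_left_cancel hg'⟩
      have e1 : MulAction.stabilizer P (a + b) = MulAction.stabilizer P a :=
        Subgroup.eq_of_le_of_card_ge (hle.trans inf_le_left) (hconst _ _ ha hab).le
      exact e1 ▸ hle.trans inf_le_right
    -- every line has a nonzero vector on a different line
    have other : ∀ i < p, ∃ j < p, j ≠ i ∧ ∃ b : V, b ≠ 0 ∧ w j • b = b := by
      intro i hi
      by_contra h
      push Not at h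
      apply hw1 i
      rw [faith (w i) ?_]
      · exact one_mem _
      intro e
      have h1 := powSum_identity (x := x) hp.out.pos (hzcom x) hzj e
      rw [Finset.sum_eq_single_of_mem i (Finset.mem_range.2 hi) ?_] at h1
      · apply sub_eq_zero.1
        apply hpe
        rw [nsmul_sub, ← smul_comm (w i), ← h1, smul_powSum (hAe _ (hwA i)), sub_self]
      · intro j hj hji
        by_contra h0
        exact h j (Finset.mem_range.1 hj) hji _ h0 (smul_powSum (hAe _ (hwA j)) e)
    obtain ⟨i₀, hi₀, a, ha, hwa⟩ : ∃ i < p, ∃ a : V, a ≠ 0 ∧ w i • a = a := by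
      obtain ⟨k, hk, hk0⟩ := comp ha₀
      exact ⟨k, hk, _, hk0, smul_powSum (hAe _ (hwA k)) _⟩
    obtain ⟨⟨g, hg⟩, hg1⟩ := Subgroup.ne_bot_iff_exists_ne_one.1 (hbig a ha)
    apply hg1
    refine Subtype.ext (faith g fun e => ?_)
    apply sub_eq_zero.1
    apply hpe
    rw [nsmul_sub, ← smul_comm g, ← powSum_identity hp.out.pos (hzcom x) hzj e, Finset.smul_sum,
      ← Finset.sum_sub_distrib]
    refine Finset.sum_eq_zero fun k hk => sub_eq_zero.2 ?_
    rcases eq_or_ne (powSum p (w k) e) 0 with h0 | h0
    · simp only [hw] at h0; rw [h0, smul_zero]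
    have hfix := smul_powSum (hAe _ (hwA k)) e
    rcases eq_or_ne k i₀ with rfl | hne
    · obtain ⟨j, hj, hji, b, hb, hwb⟩ := other k hi₀
      exact key hj hi₀ hji hb h0 hwb hfix (key hi₀ hj hji.symm ha hb hwa hwb hg)
    · exact key hi₀ (Finset.mem_range.1 hk) hne.symm ha h0 hwa hfix hg

end Cfsg.Agent.H48.HalfTransitive
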