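import Cfsg.Agent.H48.RankOneK
import Cfsg.Agent.H21.ThompsonFpf

/-!
# The rank-one set-up: nilpotence of `Q` and consequences
-/

set_option autoImplicit false

namespace Cfsg.Agent.H48.RankOne

open Cfsg MulAction
open scoped commutatorElement

variable {G Ω : Type*} [Group G] [Finite G] [MulAction G Ω] {a : Ω} {t : G} {Q : Subgroup G}

omit [MulAction G Ω] [Finite G] in
/-- In a finite nilpotent group of even order some involution is central. -/
theorem exists_central_involution {N : Type*} [Group N] [Finite N] (hN : Group.IsNilpotent N)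
    (hev : Even (Nat.card N)) : ∃ z : N, z ≠ 1 ∧ z * z = 1 ∧ ∀ x, z * x = x * z := by
  have : Fact (Nat.Prime 2) := ⟨Nat.prime_two⟩
  have hn := ((isNilpotent_of_finite_tfae (G := N)).out 0 3).1 hN
  obtain ⟨S⟩ : Nonempty (Sylow 2 N) := inferInstance
  have hSn : (S : Subgroup N).Normal := hn 2 inferInstance S
  have hS1 : (S : Subgroup N) ≠ ⊥ := by
    apply S.ne_bot_of_dvd_card
    exact hev.two_dvd
  -- descend along the lower central series
  have key : ∀ i, (S : Subgroup N) ⊓ (⊤ : Subgroup N).lowerCentralSeries i = ⊥ ∨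
      ∃ z ∈ (S : Subgroup N), z ≠ 1 ∧ ∀ x, z * x = x * z := by
    intro i
    obtain ⟨m, hm⟩ := Subgroup.nilpotent_iff_lowerCentralSeries.1 hN
    induction h : m - i generalizing i with
    | zero =>
      left
      have : (⊤ : Subgroup N).lowerCentralSeries i = ⊥ := by
        apply le_bot_iff.1
        rw [← hm]
        exact Subgroup.lowerCentralSeries_antitone _ (by omega)
      rw [this, inf_bot_eq]
    | succ d ih =>
      rcases ih (i + 1) (by omega) with h1 | h1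
      · rcases eq_or_ne ((S : Subgroup N) ⊓ (⊤ : Subgroup N).lowerCentralSeries i) ⊥ with h2 | h2
        · exact Or.inl h2
        right
        obtain ⟨⟨z, hz⟩, hz1⟩ := Subgroup.ne_bot_iff_exists_ne_one.1 h2
        refine ⟨z, hz.1, fun h => hz1 (Subtype.ext h), fun x => ?_⟩
        have hc : ⁅z, x⁆ ∈ (S : Subgroup N) ⊓ (⊤ : Subgroup N).lowerCentralSeries (i + 1) := by
          refine ⟨?_, ?_⟩
          · have := mul_mem hz.1 (hSn.conj_mem _ (inv_mem hz.1) x)
            rwa [show z * (x * z⁻¹ * x⁻¹) = ⁅z, x⁆ by rw [commutatorElement_def]; group] at this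
          · exact Subgroup.commutator_mem_commutator hz.2 (Subgroup.mem_top x)
        rw [h1, Subgroup.mem_bot, commutatorElement_eq_one_iff_mul_comm] at hc
        exact hc
      · exact Or.inr h1
  obtain ⟨z, hzS, hz1, hzc⟩ : ∃ z ∈ (S : Subgroup N), z ≠ 1 ∧ ∀ x, z * x = x * z :=
    (key 0).resolve_left (by simpa using hS1)
  obtain ⟨k, hk⟩ := IsPGroup.iff_orderOf.1 S.isPGroup' ⟨z, hzS⟩
  rw [Subgroup.orderOf_mk] at hk
  have hk0 : k ≠ 0 := fun h => hz1 (orderOf_eq_one_iff.1 (by rw [hk, h, pow_zero]))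
  refine ⟨z ^ 2 ^ (k - 1), ?_, ?_, fun x => (Commute.pow_left (hzc x) _).eq⟩
  · apply pow_ne_one_of_lt_orderOf (by positivity)
    rw [hk]
    exact Nat.pow_lt_pow_right (by norm_num) (by omega)
  · rw [← pow_add, ← two_mul, ← pow_succ', Nat.sub_add_cancel (by omega), ← hk, pow_orderOf_eq_one]

variable (hS : Cfsg.IsRankOneSetup G Ω a t Q)
include hS

section TwoRank

variable (h2 : ∃ x y : G, x ≠ 1 ∧ y ≠ 1 ∧ x ≠ y ∧ x * x = 1 ∧ y * y = 1 ∧ x * y = y * x)
include h2

/-- With two commuting involutions, `G_a` has two distinct commuting involutions. -/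
theorem exists_two_I₀ : ∃ s₁ s₂ : G,
    s₁ ∈ Cfsg.involutionsIn (MulAction.stabilizer G a : Set G) ∧
      s₂ ∈ Cfsg.involutionsIn (MulAction.stabilizer G a : Set G) ∧ s₁ ≠ s₂ := by
  obtain ⟨x, y, hx1, hy1, hxy, hx2, hy2, hc⟩ := h2
  obtain ⟨p, hp, huniq⟩ := exists_unique_fix hS hx1 hx2
  have hyp : y • p = p := huniq _ (by
    change x • (y • p) = y • p
    rw [← mul_smul, hc, mul_smul, hp])
  obtain ⟨g, rfl⟩ := exists_smul_eq hS p
  refine ⟨g⁻¹ * x * g, g⁻¹ * y * g, ⟨?_, ?_, ?_⟩, ⟨?_, ?_, ?_⟩,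
    fun h => hxy (mul_left_cancel (mul_right_cancel h))⟩
  · change (g⁻¹ * x * g) • a = a
    rw [mul_smul, mul_smul, hp, inv_smul_smul]
  · simpa using (conj_involution (g := g⁻¹) hx1 hx2).1
  · simpa using (conj_involution (g := g⁻¹) hx1 hx2).2
  · change (g⁻¹ * y * g) • a = a
    rw [mul_smul, mul_smul, hyp, inv_smul_smul]
  · simpa using (conj_involution (g := g⁻¹) hy1 hy2).1
  · simpa using (conj_involution (g := g⁻¹) hy1 hy2).2

/-- `K` contains an element of prime order. -/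
theorem exists_prime_K : ∃ k ∈ Cfsg.invertedBy
    (MulAction.stabilizer G a ⊓ MulAction.stabilizer G (t • a)) t,
    ∃ p : ℕ, p.Prime ∧ orderOf k = p := by
  obtain ⟨⟨s, r⟩, ⟨hs, hr, e⟩, -⟩ := structure_equation hS
  obtain ⟨s₁, s₂, h₁, h₂, hne⟩ := exists_two_I₀ hS h2
  obtain ⟨k, hk, hks⟩ := K_transitive hS hs hr e h₁ h₂
  have hk1 : k ≠ 1 := by
    rintro rfl
    exact hne (by simpa using hks)
  have hn : orderOf k ≠ 1 := fun h => hk1 (orderOf_eq_one_iff.1 h)
  refine ⟨k ^ (orderOf k / (orderOf k).minFac), ⟨pow_mem hk.1 _, ?_⟩, _,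
    Nat.minFac_prime hn, orderOf_pow_orderOf_div (orderOf_pos k).ne' (Nat.minFac_dvd _)⟩
  rw [← conj_pow, hk.2, inv_pow]

/-- `Q` is nilpotent. -/
theorem nilpotent_Q : Group.IsNilpotent Q := by
  obtain ⟨k, hk, p, hp, hkp⟩ := exists_prime_K hS h2
  have hmem : k ∈ Subgroup.normalizer (Q : Set G) := by
    rw [normalizer_Q hS]
    exact hk.1.1
  have hpow : (⟨k, hmem⟩ : Subgroup.normalizer (Q : Set G)) ^ p = 1 := by
    apply Subtype.ext
    change k ^ p = 1
    rw [← hkp, pow_orderOf_eq_one]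
  refine Cfsg.Agent.H21.isNilpotent_of_fpf_action (Subgroup.normalizerMonoidHom Q) hp hpow
    fun q hq => ?_
  have h1 : k * q * k⁻¹ = q := congrArg Subtype.val hq
  have hk1 : k ≠ 1 := fun h => hp.ne_one (by rw [← hkp, h, orderOf_one])
  have h3 : (q : G) ∈ Q ⊓ Subgroup.centralizer {k} :=
    ⟨q.2, Subgroup.mem_centralizer_singleton_iff.2 (mul_inv_eq_iff_eq_mul.1 h1).symm⟩
  rw [K_fpf hS hk hk1, Subgroup.mem_bot] at h3
  exact Subtype.ext h3

/-- The involutions of `G_a` are central in `Q`. -/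
theorem I₀_central {s : G} (hs : s ∈ Cfsg.involutionsIn (MulAction.stabilizer G a : Set G))
    {x : G} (hx : x ∈ Q) : s * x = x * s := by
  obtain ⟨⟨s₀, r⟩, ⟨hs₀, hr, e⟩, -⟩ := structure_equation hS
  obtain ⟨⟨z, hzQ⟩, hz1, hz2, hzc⟩ := exists_central_involution (nilpotent_Q hS h2) hS.even_card
  have hz : z ∈ Cfsg.involutionsIn (MulAction.stabilizer G a : Set G) :=
    ⟨hS.le hzQ, fun h => hz1 (Subtype.ext h), congrArg Subtype.val hz2⟩
  obtain ⟨k, hk, rfl⟩ := K_transitive hS hs₀ hr e hz hs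
  have hx' : k * x * k⁻¹ ∈ Q := conj_Q_of_mem_D hS hk.1 hx
  have hc : z * (k * x * k⁻¹) = k * x * k⁻¹ * z := congrArg Subtype.val (hzc ⟨_, hx'⟩)
  calc k⁻¹ * z * k * x = k⁻¹ * (z * (k * x * k⁻¹)) * k := by group
    _ = k⁻¹ * (k * x * k⁻¹ * z) * k := by rw [hc]
    _ = x * (k⁻¹ * z * k) := by group

/-- Involutions with a common fixed point commute. -/
theorem commute_of_common_fix {u v : G} (hu1 : u ≠ 1) (hu2 : u * u = 1) (hv1 : v ≠ 1) (hv2 : v * v = 1)
    {p : Ω} (hup : u • p = p) (hvp : v • p = p) : u * v = v * u := by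
  obtain ⟨g, rfl⟩ := exists_smul_eq hS p
  have hu' : g⁻¹ * u * g ∈ Cfsg.involutionsIn (MulAction.stabilizer G a : Set G) := by
    refine ⟨?_, by simpa using (conj_involution (g := g⁻¹) hu1 hu2).1,
      by simpa using (conj_involution (g := g⁻¹) hu1 hu2).2⟩
    change (g⁻¹ * u * g) • a = a
    rw [mul_smul, mul_smul, hup, inv_smul_smul]
  have hv' : g⁻¹ * v * g ∈ Q := by
    apply mem_Q_of_mul_self hS
    · rw [mul_smul, mul_smul, hvp, inv_smul_smul]
    · simpa using (conj_involution (g := g⁻¹) hv1 hv2).2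
  have h := I₀_central hS h2 hu' hv'
  calc u * v = g * ((g⁻¹ * u * g) * (g⁻¹ * v * g)) * g⁻¹ := by group
    _ = g * ((g⁻¹ * v * g) * (g⁻¹ * u * g)) * g⁻¹ := by rw [h]
    _ = v * u := by group

/-- Strongly real elements of order greater than two. -/
theorem strongly_real {u v : G} (hu1 : u ≠ 1) (hu2 : u * u = 1) (hv1 : v ≠ 1) (hv2 : v * v = 1)
    (hx : (u * v) * (u * v) ≠ 1) :
    (∃ g : G, ∃ u' ∈ Cfsg.involutionsIn (MulAction.stabilizer G a : Set G),
        g * (u * v) * g⁻¹ = u' * t) ∧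
      Odd (Nat.card ↥(Subgroup.centralizer {u * v})) := by
  have hfix : ∀ p : Ω, u • p = p → v • p ≠ p := by
    intro p hup hvp
    apply hx
    calc u * v * (u * v) = u * (v * u) * v := by group
      _ = (u * u) * (v * v) := by rw [← commute_of_common_fix hS h2 hu1 hu2 hv1 hv2 hup hvp]; group
      _ = 1 := by rw [hu2, hv2, one_mul]
  refine ⟨?_, odd_centralizer_mul hS hu1 hu2 hv1 hv2 hfix fun h => hx (by rw [h, one_mul])⟩
  obtain ⟨p, hp, -⟩ := exists_unique_fix hS hu1 hu2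
  obtain ⟨q, hq, -⟩ := exists_unique_fix hS hv1 hv2
  obtain ⟨c, hc, hca, -⟩ := exists_fix_t hS
  obtain ⟨g₀, hga, hgc⟩ := exists_pair hS (c₁ := p) (c₂ := q) (fun h => hfix p hp (by rw [h]; exact hq)) (Ne.symm hca)
  obtain ⟨g, hg1, hg2⟩ := exists_pair hS hca (ta_ne hS).symm
  obtain ⟨⟨s, r⟩, ⟨hs, hr, e⟩, -⟩ := structure_equation hS
  have hmem : ∀ w : G, w ≠ 1 → w * w = 1 → w • c = c →
      g * w * g⁻¹ ∈ Cfsg.involutionsIn (MulAction.stabilizer G a : Set G) := by
    intro w hw1 hw2 hwc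
    refine ⟨?_, (conj_involution hw1 hw2).1, (conj_involution hw1 hw2).2⟩
    change (g * w * g⁻¹) • a = a
    rw [mul_smul, mul_smul, inv_smul_eq_iff.2 hg1.symm, hwc, hg1]
  set v' := g₀ * v * g₀⁻¹ with hv'
  have hv'c : v' • c = c := by
    rw [hv', mul_smul, mul_smul, inv_smul_eq_iff.2 hgc.symm, hq, hgc]
  obtain ⟨k, hk, hkst⟩ := K_transitive hS hs hr e
    (hmem v' (conj_involution hv1 hv2).1 (conj_involution hv1 hv2).2 hv'c)
    (hmem t hS.ne_one hS.mul_self hc)
  set h := g⁻¹ * k⁻¹ * g with hh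
  have hha : h • a = a := by
    rw [hh, mul_smul, mul_smul, hg2, inv_smul_eq_iff.2 (show t • a = k • (t • a) from hk.1.2.symm),
      inv_smul_eq_iff, hg2]
  have hht : h * v' * h⁻¹ = t := by
    calc h * v' * h⁻¹ = g⁻¹ * (k⁻¹ * (g * v' * g⁻¹) * k) * g := by rw [hh]; group
      _ = t := by rw [hkst]; group
  clear_value h
  refine ⟨h * g₀, h * (g₀ * u * g₀⁻¹) * h⁻¹, ⟨?_, ?_, ?_⟩, ?_⟩
  · change (h * (g₀ * u * g₀⁻¹) * h⁻¹) • a = a
    rw [mul_smul, mul_smul, mul_smul, mul_smul, inv_smul_eq_iff.2 hha.symm,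
      inv_smul_eq_iff.2 hga.symm, hp, hga, hha]
  · exact (conj_involution (conj_involution hu1 hu2).1 (conj_involution hu1 hu2).2).1
  · exact (conj_involution (conj_involution hu1 hu2).1 (conj_involution hu1 hu2).2).2
  · rw [← hht, hv']; group

end TwoRank

end Cfsg.Agent.H48.RankOne
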