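import Cfsg.Agent.H65.Twist.F4Perfect

/-!
# The twisted groups of type F₄ over fields with at least eight elements are two-generated

The generators are `h · x` and `y · n`, with `h` a diagonal element commuting with the element `x` of the class of
type B₂, `y` in the pair class and `n` the product of the two reflection representatives.
-/

set_option autoImplicit false
set_option linter.unusedSectionVars false
set_option maxRecDepth 100000

open Cfsg.Lie Cfsg.Agent.H46 Cfsg.Agent.H65.Twist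
open scoped Matrix MatrixGroups

namespace Cfsg.Agent.H48.TwoGenF4

variable {K : Type*} [Field K] [Fintype K] [CharP K 2] {m : ℕ}

/-- The product formula in the class of type B₂. -/
theorem b2U_mul_eq (hK : Fintype.card K = 2 ^ (2 * m + 1)) (t u t' u' : K) :
    b2U K m t u * b2U K m t' u' = b2U K m (t + t') (u + u' + iterateFrobenius K 2 m t * t') := by
  obtain ⟨T, U, e⟩ := fixed_classB hK (x := b2U K m t u * b2U K m t' u') (mul_mem (b2U_class t u) (b2U_class t' u'))
    (by rw [map_mul, (f4Tau_rules hK t u).2.2.1, (f4Tau_rules hK t' u').2.2.1])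
  rw [e]
  set P := f4Pos K with hP
  have hC : ∀ a c (g : ↥(chevF4.group K)), P.C c * (P.A a * g) = P.A a * (P.C c * g) := fun a c g => by
    rw [← mul_assoc, ← mul_assoc]; exact congrArg (· * g) (b2_top_central (r := 27) (s := 28) (by simp) a c).symm
  have hE : ∀ a c (g : ↥(chevF4.group K)), P.E c * (P.A a * g) = P.A a * (P.E c * g) := fun a c g => by
    rw [← mul_assoc, ← mul_assoc]; exact congrArg (· * g) (b2_top_central (r := 27) (s := 30) (by simp) a c).symm
  have hC' : ∀ a c (g : ↥(chevF4.group K)), P.C c * (P.B a * g) = P.B a * (P.C c * g) := fun a c g => by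
    rw [← mul_assoc, ← mul_assoc]; exact congrArg (· * g) (b2_top_central (r := 25) (s := 28) (by simp) a c).symm
  have hE' : ∀ a c (g : ↥(chevF4.group K)), P.E c * (P.B a * g) = P.B a * (P.E c * g) := fun a c g => by
    rw [← mul_assoc, ← mul_assoc]; exact congrArg (· * g) (b2_top_central (r := 25) (s := 30) (by simp) a c).symm
  have key : ∀ a b c d a' b' c' d' : K,
      P.word a b c d * P.word a' b' c' d' =
        P.word (a + a') (b + b') (a' * b + c + c') (a' ^ 2 * b + d + d') := by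
    intro a b c d a' b' c' d'
    have h1 : P.word a b c d * P.word a' b' c' d' =
        P.A a * (P.B b * P.A a') * (P.B b' * (P.C c * P.E d * (P.C c' * P.E d'))) := by
      simp only [B2Block.word, mul_assoc]
      rw [hE, hC, hE', hC']
    rw [h1, P.swap, P.two_mul', B2Block.word]
    simp only [mul_assoc]
    rw [hE', hC', ← mul_assoc (P.C (a' * b)), P.two_mul']
    simp only [← mul_assoc, ← add_assoc]
    rw [show P.A a * P.A a' = P.A (a + a') from f4_xE_add 27 a a',
      mul_assoc (P.A (a + a')) (P.B b) (P.B b'), show P.B b * P.B b' = P.B (b + b') from f4_xE_add 25 b b']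
  rw [b2U, b2U, key] at e
  have h := congrArg (fun g : ↥(chevF4.group K) => (g : GL chevF4.Idx K)) e
  simp only [hP, b2U, b2word_ord] at h
  obtain ⟨-, hT, hU, -⟩ := xB_injective h
  subst hT
  have h2 : U = u + u' + iterateFrobenius K 2 m t * t' := by
    simp only [map_add] at hU
    linear_combination (norm := ring_nf) -hU
    simp [CharTwo.two_eq_zero]
  rw [h2]

theorem b2U_zero : b2U K m (0 : K) 0 = 1 := by
  have := b2U_add_top (K := K) (m := m) 0 0 0
  rw [add_zero] at this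
  exact mul_eq_left.1 this

theorem pairU_zero : pairU K m (0 : K) = 1 := by
  have := pairU_add (K := K) (m := m) 0 0
  rw [add_zero] at this
  exact mul_eq_left.1 this

theorem torusVal_pow (z : Fin chevF4.rank → Kˣ) (r k : ℕ) :
    goodF4.torusVal (z ^ k) r = goodF4.torusVal z r ^ k := by
  induction k with
  | zero => simp [goodF4.torusVal_one]
  | succ k ih => rw [pow_succ, pow_succ, goodF4.torusVal_mul, ih]

theorem torusE_pow (z : Fin chevF4.rank → Kˣ) (k : ℕ) : torusE goodF4 (z ^ k) = torusE goodF4 z ^ k :=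
  Subtype.ext (by rw [Subgroup.coe_pow]; exact map_pow _ z k)

theorem f4_orbit_facts :
    f4Wn 0 24 = 23 ∧ f4Wn 1 23 = 15 ∧ f4Wn 0 27 = 34 ∧ f4Wn 1 34 = 35 ∧
    (∀ k, goodF4.rc 15 k = (-2 : ℤ) * goodF4.rc 28 k + (-1 : ℤ) * goodF4.rc 24 k) ∧
    (∀ k, goodF4.rc 35 k = (1 : ℤ) * goodF4.rc 33 k + (1 : ℤ) * goodF4.rc 28 k) := by
  decide +kernel

theorem f4_w0_neg : ∀ p ∈ [(14, 33), (23, 24), (20, 27), (22, 25), (19, 28), (17, 30)],
    appR f4Wn [1, 0, 1, 0, 1, 0, 1, 0] p.1 = p.2 ∧ p.1 < chevF4.nroots ∧ p.2 < chevF4.nroots := by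
  decide +kernel

/-- A fixed monomial element with the permutation of the product of the two reflections sends the negative classes
to the positive ones. -/
theorem conj_neg (j : Fin 2) {g : ↥(chevF4.group K)}
    (hg : (g : GL chevF4.Idx K) ∈ Subgroup.closure
      {x : GL chevF4.Idx K | ∃ r ∈ ([[14, 23], [20, 22, 19, 17]].getD j.val [] : List ℕ), ∃ t, x = goodF4.xg r t}) :
    (((f4N K 0 * f4N K 1) ^ 4 * g * ((f4N K 0 * f4N K 1) ^ 4)⁻¹ : ↥(chevF4.group K)) : GL chevF4.Idx K) ∈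
      goodF4.posSub {r | chevF4.IsPosRoot r ∧ chevF4.InRootSub {i | i ∈ f4Jl j} r} := by
  set n4 : GL chevF4.Idx K := ((f4N K 0 * f4N K 1) ^ 4 : ↥(chevF4.group K)).1
  have hn : ∀ j, (f4N K j : GL chevF4.Idx K) ∈ chevF4.monomialSubgroup K := fun _ => goodF4.nProd_mem _
  have hn4 : n4 ∈ chevF4.monomialSubgroup K := by
    simpa [n4] using pow_mem (mul_mem (hn 0) (hn 1)) 4
  have hperm : ∀ r : Fin chevF4.nroots,
      (goodF4.perm n4 r).val = appR f4Wn [1, 0, 1, 0, 1, 0, 1, 0] r.val := by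
    intro r
    have e : n4 = (f4N K 0).1 * (f4N K 1).1 * ((f4N K 0).1 * (f4N K 1).1) *
        ((f4N K 0).1 * (f4N K 1).1) * ((f4N K 0).1 * (f4N K 1).1) := by
      simp [n4, pow_succ]
    have h2 := mul_mem (hn 0) (hn 1)
    rw [e, goodF4.perm_mul (mul_mem (mul_mem h2 h2) h2) h2, goodF4.perm_mul (mul_mem h2 h2) h2,
      goodF4.perm_mul h2 h2, goodF4.perm_mul (hn 0) (hn 1)]
    simp only [Equiv.Perm.mul_apply, f4N_perm]
    rfl
  have hle : Subgroup.closure
      {x : GL chevF4.Idx K | ∃ r ∈ ([[14, 23], [20, 22, 19, 17]].getD j.val [] : List ℕ), ∃ t, x = goodF4.xg r t} ≤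
      (goodF4.posSub {r | chevF4.IsPosRoot r ∧ chevF4.InRootSub {i | i ∈ f4Jl j} r}).comap
        (MulAut.conj n4).toMonoidHom := by
    refine (Subgroup.closure_le _).2 ?_
    rintro x ⟨r, hr, s, rfl⟩
    obtain ⟨p, hp, rfl, hcls⟩ : ∃ p ∈ [(14, 33), (23, 24), (20, 27), (22, 25), (19, 28), (17, 30)],
        p.1 = r ∧ p.2 ∈ f4Cls j := by
      obtain rfl | rfl : j = 0 ∨ j = 1 := by omega
      · simp at hr; rcases hr with rfl | rfl <;> simp [f4Cls]
      · simp at hr; rcases hr with rfl | rfl | rfl | rfl <;> simp [f4Cls]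
    obtain ⟨hw, h1, h2⟩ := f4_w0_neg p hp
    obtain ⟨c, hc⟩ := goodF4.conj_xg_eq hn4 ⟨p.1, h1⟩
    simp only [SetLike.mem_coe, Subgroup.mem_comap, MulEquiv.coe_toMonoidHom, MulAut.conj_apply]
    rw [hc s, show goodF4.perm n4 ⟨p.1, h1⟩ = ⟨p.2, h2⟩ from Fin.ext ((hperm _).trans hw)]
    exact class_mem_posSub hcls h2 _
  exact hle hg

/-- `²F₄(q)` is two-generated inside the Chevalley group. -/
theorem f4W_two_generated (hm : 1 ≤ m) (hK : Fintype.card K = 2 ^ (2 * m + 1)) :
    ∃ a ∈ f4W K m, ∃ b ∈ f4W K m, f4W K m ≤ Subgroup.closure {a, b} := by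
  classical
  obtain ⟨c, hc⟩ := IsCyclic.exists_generator (α := Kˣ)
  have horder : orderOf c = Fintype.card K - 1 := by
    rw [orderOf_eq_card_of_forall_mem_zpowers hc, Nat.card_units, Nat.card_eq_fintype_card]
  have hc1 : (c : K) ≠ 1 := by
    intro e
    have h1 : c = 1 := Units.ext e
    rw [h1, orderOf_one, hK] at horder
    have : 2 ^ 3 ≤ 2 ^ (2 * m + 1) := Nat.pow_le_pow_right (by norm_num) (by omega)
    omega
  have hgen : ∀ y : K, y ≠ 0 → ∃ k : ℕ, (c : K) ^ k = y := by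
    intro y hy
    obtain ⟨k, hk⟩ := Submonoid.mem_powers_iff (Units.mk0 y hy) c |>.1
      ((isOfFinOrder_of_finite c).mem_powers_iff_mem_zpowers.2 (hc _))
    exact ⟨k, by rw [← Units.val_pow_eq_pow_val, hk, Units.val_mk0]⟩
  have hfrob1 : ∀ (r : ℕ) {x : K}, iterateFrobenius K 2 r x = 1 → x = 1 := fun r x hx =>
    iterateFrobenius_inj K 2 r (hx.trans (map_one _).symm)
  obtain ⟨e23, e15, e34, e35, c15, c35⟩ := f4_orbit_facts
  obtain ⟨z, hz33, hz27, hzf⟩ := f4_exists_fixed hK c 1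
  obtain ⟨hz24, hz25⟩ := (torus_fixed_f4 hK z).1 hzf
  rw [hz33] at hz24
  rw [hz27, Units.val_one, map_one] at hz25
  have hz25' : goodF4.torusVal z 25 = 1 := Units.ext hz25
  have hz28 : goodF4.torusVal z 28 = 1 := by rw [f4_val_sum.2.1, hz27, hz25', mul_one]
  set S := f4Setup K hK
  set h := torusE goodF4 z with hh_def
  set n := f4N K 0 * f4N K 1 with hn_def
  set u1 := b2U K m (1 : K) 0 with hu1
  set x1 := pairU K m (1 : K) with hx1
  have hhW : h ∈ f4W K m := (f4_fixed_diag_mem hK (goodF4.mem_diagonal.2 ⟨z, rfl⟩) hzf).2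
  have hnW : n ∈ f4W K m := mul_mem (f4N_mem 0) (f4N_mem 1)
  refine ⟨h * u1, mul_mem hhW (b2U_mem _ _), x1 * n, mul_mem (pairU_mem _) hnW, ?_⟩
  set M := Subgroup.closure ({h * u1, x1 * n} : Set ↥(chevF4.group K))
  have ha : h * u1 ∈ M := Subgroup.subset_closure (Set.mem_insert _ _)
  have hb : x1 * n ∈ M := Subgroup.subset_closure (Set.mem_insert_of_mem _ rfl)
  -- separation of the first generator
  have hcom : Commute h u1 := by
    show h * u1 = u1 * h
    rw [← mul_inv_eq_iff_eq_mul, torus_conj_b2U hK hzf, hz25', hz28, Units.val_one, one_mul, one_mul]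
  have hhq : h ^ Nat.card Kˣ = 1 := by
    rw [← torusE_pow, show z ^ Nat.card Kˣ = 1 from funext fun i => pow_card_eq_one']
    exact Subtype.ext (map_one _)
  have hu4 : u1 ^ 4 = 1 := by
    rw [show u1 ^ 4 = (u1 * u1) * (u1 * u1) by simp [pow_succ, mul_assoc], b2U_mul_eq hK, b2U_mul_eq hK]
    simp [CharTwo.add_self_eq_zero, b2U_zero]
  obtain ⟨hu1M, hhM⟩ : u1 ∈ M ∧ h ∈ M := by
    have h1 : (h * u1) ^ Nat.card Kˣ ∈ M := pow_mem ha _
    rw [hcom.mul_pow, hhq, one_mul] at h1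
    have e3 : u1 ^ Nat.card Kˣ * u1 = 1 := by
      rw [← pow_succ, Nat.card_units, Nat.card_eq_fintype_card, hK, Nat.sub_add_cancel (Nat.one_le_two_pow),
        show 2 * m + 1 = 2 + (2 * m - 1) by omega, pow_add, show (2 : ℕ) ^ 2 = 4 from rfl, pow_mul, hu4, one_pow]
    have h2 : u1 ∈ M := by
      rw [eq_inv_of_mul_eq_one_right e3]
      exact inv_mem h1
    refine ⟨h2, ?_⟩
    have := mul_mem ha (inv_mem h2)
    rwa [mul_inv_cancel_right] at this
  -- the transported torus element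
  have hn0 : ∀ j, (f4N K j : GL chevF4.Idx K) ∈ chevF4.monomialSubgroup K := fun _ => goodF4.nProd_mem _
  have hnm : (n : GL chevF4.Idx K) ∈ chevF4.monomialSubgroup K := by
    rw [hn_def, Subgroup.coe_mul]; exact mul_mem (hn0 0) (hn0 1)
  obtain ⟨v, hv⟩ := goodF4.mem_diagonal.1 (goodF4.diagonal_normalized hnm (goodF4.mem_diagonal.2 ⟨z, rfl⟩))
  set h' := torusE goodF4 v with hh'_def
  have hnh : n * h * n⁻¹ = h' := by
    apply Subtype.ext
    rw [Subgroup.coe_mul, Subgroup.coe_mul, Subgroup.coe_inv]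
    exact hv
  have hvf : f4Tau K m h' = h' := by
    rw [← hnh, map_mul, map_mul, map_inv, f4W_fixed hK n hnW, hzf]
  have hval : ∀ (r : ℕ) (hr : r < chevF4.nroots),
      goodF4.torusVal v r = goodF4.torusVal z (f4Wn 1 (f4Wn 0 r)) := by
    intro r hr
    have h1 := torusVal_conj goodF4 hnm hv (f4WJ 1 (f4WJ 0 ⟨r, hr⟩))
    rw [hn_def, Subgroup.coe_mul, goodF4.perm_mul (hn0 0) (hn0 1), Equiv.Perm.mul_apply, f4N_perm, f4N_perm,
      f4_facts.invol, f4_facts.invol] at h1
    exact h1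
  have hv24 : (goodF4.torusVal v 24 : K) = ((iterateFrobenius K 2 (m + 1) (c : K))⁻¹) := by
    rw [hval 24 (by decide +kernel), e23, e15,
      goodF4.torusVal_add (r := 28) (s := 24) (u := 15) z (-2) (-1) (funext c15), hz28, one_zpow, one_mul, zpow_neg,
      zpow_one, Units.val_inv_eq_inv_val, hz24]
  have hv27 : goodF4.torusVal v 27 = c := by
    rw [hval 27 (by decide +kernel), e34, e35,
      goodF4.torusVal_add (r := 33) (s := 28) (u := 35) z 1 1 (funext c35), hz33, hz28, zpow_one, zpow_one,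
      mul_one]
  -- the pair class
  have hxx : x1⁻¹ = x1 := inv_eq_of_mul_eq_one_right (by
    rw [hx1, pairU_add, CharTwo.add_self_eq_zero, pairU_zero])
  set β : K := (goodF4.torusVal v 24 : K) with hβ
  set α : K := (goodF4.torusVal z 24 : K) with hα
  have hd : pairU K m ((α + 1) * (1 + β)) ∈ M := by
    have h1 : pairU K m (1 + β) * h' ∈ M := by
      have h2 := mul_mem (mul_mem hb hhM) (inv_mem hb)
      have e : x1 * n * h * (x1 * n)⁻¹ = pairU K m (1 + β) * h' := by
        calc x1 * n * h * (x1 * n)⁻¹ = x1 * (n * h * n⁻¹) * x1⁻¹ := by group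
          _ = x1 * (h' * x1 * h'⁻¹) * h' := by rw [hnh, hxx]; group
          _ = _ := by rw [hx1, hh'_def, torus_conj_pairU hK hvf, ← hβ, mul_one, pairU_add]
      rwa [e] at h2
    have h3 := mul_mem (mul_mem (mul_mem hhM h1) (inv_mem hhM)) (inv_mem h1)
    have hcc : h * h' = h' * h := Subtype.ext (goodF4.diagonal_comm (goodF4.mem_diagonal.2 ⟨z, rfl⟩)
      (goodF4.mem_diagonal.2 ⟨v, rfl⟩))
    have e : h * (pairU K m (1 + β) * h') * h⁻¹ * (pairU K m (1 + β) * h')⁻¹ =
        (h * pairU K m (1 + β) * h⁻¹) * (pairU K m (1 + β))⁻¹ := by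
      calc h * (pairU K m (1 + β) * h') * h⁻¹ * (pairU K m (1 + β) * h')⁻¹
          = (h * pairU K m (1 + β) * h⁻¹) * (h * h') * h⁻¹ * h'⁻¹ * (pairU K m (1 + β))⁻¹ := by group
        _ = _ := by rw [hcc]; group
    have e2 : (pairU K m (1 + β))⁻¹ = pairU K m (1 + β) :=
      inv_eq_of_mul_eq_one_right (by rw [pairU_add, CharTwo.add_self_eq_zero, pairU_zero])
    rw [e, hh_def, torus_conj_pairU hK hzf, ← hα, e2, pairU_add] at h3
    rwa [add_mul, one_mul]
  have hd0 : (α + 1) * (1 + β) ≠ 0 := by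
    have h1 : iterateFrobenius K 2 (m + 1) (c : K) ≠ 1 := fun e => hc1 (hfrob1 _ e)
    refine mul_ne_zero (fun e => h1 ?_) (fun e => h1 ?_)
    · rw [← hz24]; exact CharTwo.add_eq_zero.1 e
    · have h2 : β = 1 := (CharTwo.add_eq_zero.1 e).symm
      rw [hv24, inv_eq_one] at h2
      exact h2
  rw [hz24] at hd hd0
  have hpair : ∀ t, pairU K m t ∈ M := by
    intro t
    by_cases ht : t = 0
    · rw [ht, pairU_zero]; exact one_mem _
    obtain ⟨y, hy⟩ := Finite.surjective_of_injective (iterateFrobenius_inj K 2 (m + 1)) (t / ((iterateFrobenius K 2 (m + 1) (c : K) + 1) * (1 + β)))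
    obtain ⟨k, hk⟩ := hgen y (by rintro rfl; rw [map_zero] at hy; exact div_ne_zero ht hd0 hy.symm)
    have hfk : f4Tau K m (torusE goodF4 (z ^ k)) = torusE goodF4 (z ^ k) := by
      rw [torusE_pow, map_pow, hzf]
    have h1 := mul_mem (mul_mem (pow_mem hhM k) hd) (inv_mem (pow_mem hhM k))
    rw [hh_def, ← torusE_pow, torus_conj_pairU hK hfk, torusVal_pow, Units.val_pow_eq_pow_val, ← hα, hz24,
      ← map_pow, hk, hy, div_mul_cancel₀ t hd0] at h1
    exact h1
  have hnM : n ∈ M := by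
    have := mul_mem (inv_mem (hpair 1)) hb
    rwa [← hx1, inv_mul_cancel_left] at this
  have hh'M : h' ∈ M := hnh ▸ mul_mem (mul_mem hnM hhM) (inv_mem hnM)
  -- the class of type B₂
  have hlead : ∀ t, b2U K m t 0 ∈ M := by
    intro t
    by_cases ht : t = 0
    · rw [ht, b2U_zero]; exact one_mem _
    obtain ⟨y, hy⟩ := Finite.surjective_of_injective (iterateFrobenius_inj K 2 (m + 1)) t
    obtain ⟨k, hk⟩ := hgen y (by rintro rfl; rw [map_zero] at hy; exact ht hy.symm)
    have hfk : f4Tau K m (torusE goodF4 (v ^ k)) = torusE goodF4 (v ^ k) := by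
      rw [torusE_pow, map_pow, hvf]
    have h1 := mul_mem (mul_mem (pow_mem hh'M k) hu1M) (inv_mem (pow_mem hh'M k))
    rw [hh'_def, ← torusE_pow, hu1, torus_conj_b2U hK hfk, mul_one, mul_zero, torusVal_pow,
      Units.val_pow_eq_pow_val, ((torus_fixed_f4 hK v).1 hvf).2, hv27, ← map_pow, hk, hy] at h1
    exact h1
  have hb2 : ∀ t w, b2U K m t w ∈ M := by
    intro t w
    have h0 : b2U K m 0 w ∈ M := by
      by_cases hw : w = 0
      · rw [hw, b2U_zero]; exact one_mem _
      have hcop : Nat.Coprime (Nat.card Kˣ) (2 ^ m + 1) := by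
        rw [Nat.card_units, Nat.card_eq_fintype_card, hK]
        refine Nat.Coprime.coprime_dvd_right (n := 2 ^ m + 1) (k := 2 ^ (2 * m + 1) - 1) (m := 2 ^ (2 * m) - 1) ?_ ?_
        · refine ⟨2 ^ m - 1, ?_⟩
          rw [show 2 ^ (2 * m) = (2 ^ m) ^ 2 by rw [← pow_mul, mul_comm], ← Nat.sq_sub_sq, one_pow]
        · rw [Nat.Coprime, Nat.pow_sub_one_gcd_pow_sub_one,
            show Nat.gcd (2 * m + 1) (2 * m) = 1 by simp]
          norm_num
      obtain ⟨y, hy⟩ := (powCoprime hcop).surjective (Units.mk0 w hw)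
      rw [powCoprime_apply] at hy
      have h1 := mul_mem (hlead (y : K)) (hlead (y : K))
      rw [b2U_mul_eq hK, CharTwo.add_self_eq_zero, add_zero, zero_add, iterateFrobenius_def, ← pow_succ] at h1
      rwa [← Units.val_pow_eq_pow_val, hy, Units.val_mk0] at h1
    have h1 := mul_mem (hlead t) h0
    rwa [b2U_add_top, zero_add] at h1
  -- the negative classes
  have hn4 : n ^ 4 ∈ M := pow_mem hnM 4
  have hn4f : f4Tau K m (n ^ 4) = n ^ 4 := f4W_fixed hK _ (pow_mem hnW 4)
  have hneg : ∀ g : ↥(chevF4.group K), n ^ 4 * g * (n ^ 4)⁻¹ ∈ M → g ∈ M := by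
    intro g hg
    have := mul_mem (mul_mem (inv_mem hn4) hg) hn4
    simpa [mul_assoc] using this
  refine f4W_le hpair (fun t => hneg _ ?_) hb2 (fun t w => hneg _ ?_)
  · obtain ⟨t', e⟩ := fixed_classA hK (x := n ^ 4 * pairV K m t * (n ^ 4)⁻¹)
      (conj_neg 0 (mul_mem (Subgroup.subset_closure ⟨14, by simp, _, rfl⟩)
        (Subgroup.subset_closure ⟨23, by simp, _, rfl⟩)))
      (by rw [map_mul, map_mul, map_inv, hn4f, (f4Tau_rules hK t 0).2.1])
    rw [e]; exact hpair _
  · obtain ⟨t', u', e⟩ := fixed_classB hK (x := n ^ 4 * b2V K m t w * (n ^ 4)⁻¹)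
      (conj_neg 1 (mul_mem (mul_mem (mul_mem (Subgroup.subset_closure ⟨20, by simp, _, rfl⟩)
          (Subgroup.subset_closure ⟨22, by simp, _, rfl⟩)) (Subgroup.subset_closure ⟨19, by simp, _, rfl⟩))
          (Subgroup.subset_closure ⟨17, by simp, _, rfl⟩)))
      (by rw [map_mul, map_mul, map_inv, hn4f, (f4Tau_rules hK t w).2.2.2])
    rw [e]; exact hb2 _ _

/-- `²F₄(2^(2m+1))`, `m ≥ 1`, is two-generated. -/
theorem twistedF4_two_generated (hm : 1 ≤ m) (hK : Fintype.card K = 2 ^ (2 * m + 1)) :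
    ∃ a ∈ twistedF4 K (2 ^ m), ∃ b ∈ twistedF4 K (2 ^ m), twistedF4 K (2 ^ m) ≤ Subgroup.closure {a, b} := by
  obtain ⟨a, ha, b, hb, hle⟩ := f4W_two_generated hm hK
  refine ⟨a.1, ha, b.1, hb, fun g hg => ?_⟩
  have := Subgroup.mem_map_of_mem (chevF4.group K).subtype
    (hle (show ⟨g, Cfsg.Agent.H65.Twist.twistedF4_le hg⟩ ∈ f4W K m from hg))
  rwa [MonoidHom.map_closure, Set.image_pair] at this

end Cfsg.Agent.H48.TwoGenF4
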